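import Mathlib
import Cfsg.Agent.Lib.Helper64.OParM.Defs
import Cfsg.Agent.Lib.Helper57.OPar.Defs
import Cfsg.Agent.Lib.Helper87.OPar.UB
import Cfsg.Agent.Lib.Helper80.OPar.Alt
import Cfsg.Agent.Lib.Helper97.OHyp.OddOmega
import Cfsg.Agent.Lib.Helper44.DiagIso
import Cfsg.Agent.Lib.Helper94.Refl
import Cfsg.Agent.Lib.Helper8.OEll.PDer

/-!
# OPARM (S5991): the package [UNIM1]

`k` even, `m ≡ 1 (mod 4)`: a unipotent element `x = 1 + N` of `Ω⁻_{2k+2}(q)` of Jordan type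
`J_3^2 ⊕ J_2^(k-2)` fixing no nondegenerate subspace of dimension `≡ 1 (mod 4)`.

In the coordinates `(x, y, z)` (`Q = x · y + z₁² + a z₁ z₂ + b z₂²`):
`N (x, y, z) = (S y - ρ*(z) - c(y), 0, ρ y)` with `ρ y = y_{i₀} u₁ + y_{i₁} u₂`, `u₁ = (1, 0)`,
`u₂ = (-a, 2)` an orthogonal basis of the anisotropic plane, `S` alternating on the other
coordinates.  `N ^ 3 = 0`, `ker N = {(x, 0, 0)}` is totally singular, `N ^ 2` has rank `2`; then
helper57's [UB].
-/

set_option autoImplicit false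
open scoped MatrixGroups
open Matrix

namespace Cfsg.Agent.Lib.Helper8.OParM

open Cfsg.Agent.Lib.Helper23.OHyp Cfsg.Agent.Lib.Helper70.OPar Cfsg.Agent.Lib.Helper64.OParM
open Cfsg.Agent.Lib.Helper8.OEll (smEven smOdd smOdd_last smOdd_castSucc smOdd_alt smEven_inj)

universe u

section

variable {F : Type u} [Field F] {k : ℕ}

/-- the `y`-coordinates -/
def yP : (MI k → F) →ₗ[F] (Fin k → F) :=
  LinearMap.funLeft F F (fun j : Fin k => (Sum.inl (Sum.inr j) : MI k))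

theorem yP_apply (v : MI k → F) (j : Fin k) : yP v j = v (Sum.inl (Sum.inr j)) := rfl

/-- the indicator of the index `i₀` -/
def ind (i₀ i : Fin k) : F := if i = i₀ then 1 else 0

theorem ind_self (i₀ : Fin k) : ind (F := F) i₀ i₀ = 1 := if_pos rfl

theorem ind_ne {i₀ i : Fin k} (h : i ≠ i₀) : ind (F := F) i₀ i = 0 := if_neg h

/-- the nilpotent map -/
def nilM (Sm : (Fin k → F) →ₗ[F] (Fin k → F)) (i₀ i₁ : Fin k) (a b : F) :
    (MI k → F) →ₗ[F] (MI k → F) :=
  LinearMap.pi (Sum.elim (Sum.elim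
      (fun i => (LinearMap.proj i ∘ₗ Sm ∘ₗ yP)
        - (ind (F := F) i₀ i) • ((2 : F) • LinearMap.proj (Sum.inr 0)
            + a • LinearMap.proj (Sum.inr 1) + LinearMap.proj i₀ ∘ₗ yP)
        - (ind (F := F) i₁ i) • ((4 * b - a ^ 2) •
            (LinearMap.proj (Sum.inr 1) + LinearMap.proj i₁ ∘ₗ yP)))
      (fun _ => 0))
    (fun j => if j = 0 then LinearMap.proj i₀ ∘ₗ yP - a • (LinearMap.proj i₁ ∘ₗ yP)
      else (2 : F) • (LinearMap.proj i₁ ∘ₗ yP)))

section nilfacts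

variable (Sm : (Fin k → F) →ₗ[F] (Fin k → F)) (i₀ i₁ : Fin k) (a b : F)

theorem nilM_x (v : MI k → F) (i : Fin k) :
    nilM Sm i₀ i₁ a b v (Sum.inl (Sum.inl i)) = Sm (yP v) i
      - ind (F := F) i₀ i * (2 * v (Sum.inr 0) + a * v (Sum.inr 1) + v (Sum.inl (Sum.inr i₀)))
      - ind (F := F) i₁ i * ((4 * b - a ^ 2) * (v (Sum.inr 1) + v (Sum.inl (Sum.inr i₁)))) := by
  simp [nilM, yP]
  ring

theorem nilM_y (v : MI k → F) (i : Fin k) :
    nilM Sm i₀ i₁ a b v (Sum.inl (Sum.inr i)) = 0 := rfl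

theorem nilM_z0 (v : MI k → F) :
    nilM Sm i₀ i₁ a b v (Sum.inr 0) = v (Sum.inl (Sum.inr i₀)) - a * v (Sum.inl (Sum.inr i₁)) := by
  simp [nilM, yP]

theorem nilM_z1 (v : MI k → F) :
    nilM Sm i₀ i₁ a b v (Sum.inr 1) = 2 * v (Sum.inl (Sum.inr i₁)) := by
  simp [nilM, yP]

theorem yP_nilM (v : MI k → F) : yP (nilM Sm i₀ i₁ a b v) = 0 := by
  funext i
  rfl

theorem nilM2_x (v : MI k → F) (i : Fin k) :
    nilM Sm i₀ i₁ a b (nilM Sm i₀ i₁ a b v) (Sum.inl (Sum.inl i)) =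
      - (ind (F := F) i₀ i * (2 * v (Sum.inl (Sum.inr i₀))))
      - ind (F := F) i₁ i * ((4 * b - a ^ 2) * (2 * v (Sum.inl (Sum.inr i₁)))) := by
  rw [nilM_x, yP_nilM, map_zero, nilM_z0, nilM_z1, nilM_y, nilM_y]
  simp only [Pi.zero_apply]
  ring

theorem nilM2_z0 (v : MI k → F) :
    nilM Sm i₀ i₁ a b (nilM Sm i₀ i₁ a b v) (Sum.inr 0) = 0 := by
  rw [nilM_z0, nilM_y, nilM_y]
  ring

theorem nilM2_z1 (v : MI k → F) :
    nilM Sm i₀ i₁ a b (nilM Sm i₀ i₁ a b v) (Sum.inr 1) = 0 := by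
  rw [nilM_z1, nilM_y]
  ring

theorem nilM3 (v : MI k → F) :
    nilM Sm i₀ i₁ a b (nilM Sm i₀ i₁ a b (nilM Sm i₀ i₁ a b v)) = 0 := by
  funext idx
  rcases idx with (i | i) | j
  · rw [nilM2_x, nilM_y, nilM_y]
    simp
  · rfl
  · revert j
    rw [Fin.forall_fin_two]
    exact ⟨nilM2_z0 Sm i₀ i₁ a b _, nilM2_z1 Sm i₀ i₁ a b _⟩

theorem q_nilM (hS : ∀ y, ∑ i, Sm y i * y i = 0) (v : MI k → F) :
    Cfsg.quadFormMinus k F a b (v + nilM Sm i₀ i₁ a b v) = Cfsg.quadFormMinus k F a b v := by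
  unfold Cfsg.quadFormMinus
  simp only [Pi.add_apply, nilM_x, nilM_y, nilM_z0, nilM_z1, add_zero]
  have e0 : ∑ i, ind (F := F) i₀ i * v (Sum.inl (Sum.inr i)) = v (Sum.inl (Sum.inr i₀)) := by
    simp [ind]
  have e1 : ∑ i, ind (F := F) i₁ i * v (Sum.inl (Sum.inr i)) = v (Sum.inl (Sum.inr i₁)) := by
    simp [ind]
  have h1 : ∑ i, (v (Sum.inl (Sum.inl i)) + (Sm (yP v) i
        - ind (F := F) i₀ i *
          (2 * v (Sum.inr 0) + a * v (Sum.inr 1) + v (Sum.inl (Sum.inr i₀)))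
        - ind (F := F) i₁ i *
          ((4 * b - a ^ 2) * (v (Sum.inr 1) + v (Sum.inl (Sum.inr i₁)))))) *
          v (Sum.inl (Sum.inr i)) =
      ∑ i, v (Sum.inl (Sum.inl i)) * v (Sum.inl (Sum.inr i)) + ∑ i, Sm (yP v) i * yP v i
        - (2 * v (Sum.inr 0) + a * v (Sum.inr 1) + v (Sum.inl (Sum.inr i₀))) *
            ∑ i, ind (F := F) i₀ i * v (Sum.inl (Sum.inr i))
        - ((4 * b - a ^ 2) * (v (Sum.inr 1) + v (Sum.inl (Sum.inr i₁)))) *
            ∑ i, ind (F := F) i₁ i * v (Sum.inl (Sum.inr i)) := by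
    rw [Finset.mul_sum, Finset.mul_sum, ← Finset.sum_add_distrib, ← Finset.sum_sub_distrib,
      ← Finset.sum_sub_distrib]
    apply Finset.sum_congr rfl
    intro i _
    rw [yP_apply]
    ring
  rw [h1, hS, e0, e1]
  ring

end nilfacts

/-- the alternating map on `F^(h+h+1+1)`: the even one on the first `h+h` coordinates -/
def smOdd2 (h : ℕ) : (Fin (h + h + 1 + 1) → F) →ₗ[F] (Fin (h + h + 1 + 1) → F) :=
  LinearMap.pi (fun i => Fin.lastCases (motive := fun _ => (Fin (h + h + 1 + 1) → F) →ₗ[F] F) 0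
    (fun i' => LinearMap.proj i' ∘ₗ smOdd h ∘ₗ LinearMap.funLeft F F Fin.castSucc) i)

theorem smOdd2_last {h : ℕ} (y : Fin (h + h + 1 + 1) → F) :
    smOdd2 h y (Fin.last (h + h + 1)) = 0 := by
  simp [smOdd2]

theorem smOdd2_castSucc {h : ℕ} (y : Fin (h + h + 1 + 1) → F) (i : Fin (h + h + 1)) :
    smOdd2 h y (Fin.castSucc i) = smOdd h (fun j => y (Fin.castSucc j)) i := by
  simp [smOdd2]
  rfl

theorem smOdd2_alt {h : ℕ} (y : Fin (h + h + 1 + 1) → F) : ∑ i, smOdd2 h y i * y i = 0 := by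
  rw [Fin.sum_univ_castSucc, smOdd2_last, zero_mul, add_zero]
  simp only [smOdd2_castSucc]
  exact smOdd_alt (fun j => y (Fin.castSucc j))

end

/-- **[UNIM1]**, given [MINUSQ]. -/
theorem pkgUniM1_of (hMQ : PkgMinusQ.{u}) : PkgUniM1.{u} := by
  intro F _ _ p _ _ hp2 k m a b hab hk hm hmk hke hm4 W₀ hW₀ hNd₀
  classical
  have hp := (Fact.out : p.Prime)
  have h2 : (2 : F) ≠ 0 := by
    intro h
    have h3 : ((2 : ℕ) : F) = 0 := by exact_mod_cast h
    rw [CharP.cast_eq_zero_iff F p] at h3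
    exact hp2 ((Nat.prime_dvd_prime_iff_eq hp Nat.prime_two).mp h3)
  obtain ⟨hQnd, -⟩ := hMQ F h2 k a b hab
  have hδ : 4 * b - a ^ 2 ≠ 0 := by
    intro h0
    have h3 := hab (-a) 2 (by linear_combination h0)
    exact h2 h3.2
  obtain ⟨h, rfl⟩ : ∃ h, k = h + h + 1 + 1 := by
    obtain ⟨j, hj⟩ := hke
    exact ⟨j - 1, by omega⟩
  obtain ⟨i₀, hi₀⟩ : ∃ i₀ : Fin (h + h + 1 + 1), i₀ = Fin.castSucc (Fin.last (h + h)) :=
    ⟨_, rfl⟩
  obtain ⟨i₁, hi₁⟩ : ∃ i₁ : Fin (h + h + 1 + 1), i₁ = Fin.last (h + h + 1) := ⟨_, rfl⟩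
  have hne : i₁ ≠ i₀ := by
    rw [hi₀, hi₁]
    exact (Fin.castSucc_lt_last _).ne'
  obtain ⟨N, hN⟩ : ∃ N : (MI (h + h + 1 + 1) → F) →ₗ[F] (MI (h + h + 1 + 1) → F),
      N = nilM (smOdd2 h) i₀ i₁ a b := ⟨_, rfl⟩
  have hN3 : ∀ v, N (N (N v)) = 0 := by
    intro v
    rw [hN]
    exact nilM3 _ _ _ _ _ v
  have hQN : ∀ v, Cfsg.quadFormMinus (h + h + 1 + 1) F a b (v + N v) =
      Cfsg.quadFormMinus (h + h + 1 + 1) F a b v := by
    intro v
    rw [hN]
    exact q_nilM _ _ _ _ _ smOdd2_alt v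
  -- the kernel
  have hker : ∀ u : MI (h + h + 1 + 1) → F, N u = 0 →
      yP u = 0 ∧ u (Sum.inr 0) = 0 ∧ u (Sum.inr 1) = 0 := by
    intro u hu
    rw [hN] at hu
    have hy1 : u (Sum.inl (Sum.inr i₁)) = 0 := by
      have h3 := congrFun hu (Sum.inr 1)
      rw [nilM_z1] at h3
      exact (mul_eq_zero.mp h3).resolve_left h2
    have hy0 : u (Sum.inl (Sum.inr i₀)) = 0 := by
      have h3 := congrFun hu (Sum.inr 0)
      rw [nilM_z0, hy1] at h3
      simpa using h3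
    have hx : ∀ i, smOdd2 h (yP u) i
        - ind (F := F) i₀ i * (2 * u (Sum.inr 0) + a * u (Sum.inr 1))
        - ind (F := F) i₁ i * ((4 * b - a ^ 2) * u (Sum.inr 1)) = 0 := by
      intro i
      have h3 := congrFun hu (Sum.inl (Sum.inl i))
      rw [nilM_x, hy0, hy1, add_zero, add_zero] at h3
      exact h3
    have hz2 : u (Sum.inr 1) = 0 := by
      have h3 := hx i₁
      rw [ind_ne hne, ind_self, hi₁, smOdd2_last] at h3
      have h4 : (4 * b - a ^ 2) * u (Sum.inr 1) = 0 := by linear_combination -h3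
      exact (mul_eq_zero.mp h4).resolve_left hδ
    have hz1 : u (Sum.inr 0) = 0 := by
      have h3 := hx i₀
      rw [ind_ne hne.symm, ind_self, hz2, hi₀, smOdd2_castSucc,
        smOdd_last] at h3
      have h4 : 2 * u (Sum.inr 0) = 0 := by linear_combination -h3
      exact (mul_eq_zero.mp h4).resolve_left h2
    refine ⟨?_, hz1, hz2⟩
    have hyy : (fun j : Fin (h + h) => yP u (Fin.castSucc (Fin.castSucc j))) = 0 := by
      apply smEven_inj
      funext j
      have hj0 : Fin.castSucc (Fin.castSucc j) ≠ i₀ := by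
        rw [hi₀]
        intro hc
        exact (Fin.castSucc_lt_last j).ne (Fin.castSucc_injective _ hc)
      have hj1 : Fin.castSucc (Fin.castSucc j) ≠ i₁ := by
        rw [hi₁]
        exact (Fin.castSucc_lt_last _).ne
      have h3 := hx (Fin.castSucc (Fin.castSucc j))
      rw [ind_ne hj0, ind_ne hj1, smOdd2_castSucc, smOdd_castSucc] at h3
      simpa using h3
    funext j
    refine Fin.lastCases ?_ (fun j' => ?_) j
    · rw [← hi₁]
      exact hy1
    · refine Fin.lastCases ?_ (fun j'' => ?_) j'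
      · rw [← hi₀]
        exact hy0
      · exact congrFun hyy j''
  have hQ0 : ∀ w : MI (h + h + 1 + 1) → F, yP w = 0 → w (Sum.inr 0) = 0 → w (Sum.inr 1) = 0 →
      Cfsg.quadFormMinus (h + h + 1 + 1) F a b w = 0 := by
    intro w h1 h3 h4
    have h5 : ∀ i, w (Sum.inl (Sum.inr i)) = 0 := fun i => congrFun h1 i
    unfold Cfsg.quadFormMinus
    simp [h3, h4, h5]
  -- the element
  obtain ⟨φ, hφ⟩ : ∃ φ : (MI (h + h + 1 + 1) → F) →ₗ[F] (MI (h + h + 1 + 1) → F),
      φ = LinearMap.id + N := ⟨_, rfl⟩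
  obtain ⟨ψ, hψ⟩ : ∃ ψ : (MI (h + h + 1 + 1) → F) →ₗ[F] (MI (h + h + 1 + 1) → F),
      ψ = LinearMap.id - N + N ∘ₗ N := ⟨_, rfl⟩
  have h1 : φ ∘ₗ ψ = LinearMap.id := by
    apply LinearMap.ext
    intro v
    rw [hφ, hψ]
    simp only [LinearMap.comp_apply, LinearMap.add_apply, LinearMap.sub_apply,
      LinearMap.id_apply, map_add, map_sub, hN3]
    abel
  have h1' : ψ ∘ₗ φ = LinearMap.id := by
    apply LinearMap.ext
    intro v
    rw [hφ, hψ]
    simp only [LinearMap.comp_apply, LinearMap.add_apply, LinearMap.sub_apply,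
      LinearMap.id_apply, map_add, map_sub, hN3]
    abel
  obtain ⟨x, hx⟩ : ∃ x : GL (MI (h + h + 1 + 1)) F,
      x = Cfsg.Agent.Lib.Helper94.glOfLin φ ψ h1 h1' := ⟨_, rfl⟩
  have hxv : ∀ v, (x : Matrix (MI (h + h + 1 + 1)) (MI (h + h + 1 + 1)) F) *ᵥ v = v + N v := by
    intro v
    rw [hx, Cfsg.Agent.Lib.Helper94.glOfLin_mulVec, hφ]
    rfl
  have hxiso : x ∈ Cfsg.isometryGroup F (Cfsg.quadFormMinus (h + h + 1 + 1) F a b) := by
    rw [Cfsg.Agent.Lib.Helper44.mem_isometryGroup_iff']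
    intro u
    rw [hxv]
    exact hQN u
  have hxp : x ^ p = 1 := by
    apply Units.ext
    rw [Units.val_pow_eq_pow_val, Units.val_one]
    have hx1 : (x : Matrix (MI (h + h + 1 + 1)) (MI (h + h + 1 + 1)) F) =
        1 + LinearMap.toMatrix' N := by
      rw [hx]
      show LinearMap.toMatrix' φ = _
      rw [hφ, map_add, LinearMap.toMatrix'_id]
    have hM3 : LinearMap.toMatrix' N * LinearMap.toMatrix' N * LinearMap.toMatrix' N = 0 := by
      rw [← LinearMap.toMatrix'_comp, ← LinearMap.toMatrix'_comp]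
      have h3 : (N ∘ₗ N) ∘ₗ N = 0 := LinearMap.ext (fun v => hN3 v)
      rw [h3, map_zero]
    have hp3 : 3 ≤ p := by
      have := hp.two_le
      omega
    have hMp : LinearMap.toMatrix' N ^ p = 0 := by
      have e : p = 3 + (p - 3) := by omega
      rw [e, pow_add, pow_succ, pow_two, hM3, zero_mul]
    rw [hx1, add_pow_char_of_commute p (Commute.one_left _), one_pow, hMp, add_zero]
  have hx1ne : x ≠ 1 := by
    intro hc
    have h3 := hxv (Pi.single (Sum.inl (Sum.inr i₁)) 1)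
    rw [hc, Units.val_one, Matrix.one_mulVec] at h3
    have h4 : N (Pi.single (Sum.inl (Sum.inr i₁)) 1) = 0 := by
      have h5 : (Pi.single (Sum.inl (Sum.inr i₁)) (1 : F) : MI (h + h + 1 + 1) → F) +
          N (Pi.single (Sum.inl (Sum.inr i₁)) 1) = Pi.single (Sum.inl (Sum.inr i₁)) 1 + 0 := by
        rw [add_zero]
        exact h3.symm
      exact add_left_cancel h5
    have h6 := congrFun ((hker _ h4).1) i₁
    rw [yP_apply, Pi.single_eq_same] at h6
    exact one_ne_zero h6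
  have hord : orderOf x = p := orderOf_eq_prime hxp hx1ne
  have hodd : Odd (orderOf x) := by
    rw [hord]
    exact hp.odd_of_ne_two hp2
  have hxΩ := Cfsg.Agent.Lib.Helper97.OHyp.pkgOddOmega F (MI (h + h + 1 + 1)) _ hQnd h2 x hxiso
    hodd
  refine ⟨x, hxΩ, hxp, hx1ne, ?_⟩
  rintro W ⟨hWfin, hWnd, -⟩ hInv
  obtain ⟨B, hB⟩ : ∃ B : (MI (h + h + 1 + 1) → F) →ₗ[F] (MI (h + h + 1 + 1) → F) →ₗ[F] F,
      ∀ u v, B u v = QuadraticMap.polar (Cfsg.quadFormMinus (h + h + 1 + 1) F a b) u v :=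
    ⟨LinearMap.mk₂ F (QuadraticMap.polar (Cfsg.quadFormMinus (h + h + 1 + 1) F a b))
      hQnd.polar_bilinear.add_left (fun c m n => hQnd.polar_bilinear.smul_left c m n)
      hQnd.polar_bilinear.add_right (fun c m n => hQnd.polar_bilinear.smul_right c m n),
      fun u v => rfl⟩
  have hrk : Module.finrank F (LinearMap.range (N ∘ₗ N)) ≤ 2 := by
    obtain ⟨g, hg⟩ : ∃ g : (Fin 2 → F) →ₗ[F] (MI (h + h + 1 + 1) → F),
        ∀ c, g c = c 0 • Pi.single (Sum.inl (Sum.inl i₀)) (1 : F) +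
          c 1 • Pi.single (Sum.inl (Sum.inl i₁)) (1 : F) :=
      ⟨(LinearMap.proj 0).smulRight (Pi.single (Sum.inl (Sum.inl i₀)) (1 : F))
        + (LinearMap.proj 1).smulRight (Pi.single (Sum.inl (Sum.inl i₁)) (1 : F)), fun c => rfl⟩
    have hle : LinearMap.range (N ∘ₗ N) ≤ LinearMap.range g := by
      rintro _ ⟨w, rfl⟩
      refine ⟨![-(2 * w (Sum.inl (Sum.inr i₀))),
        -((4 * b - a ^ 2) * (2 * w (Sum.inl (Sum.inr i₁))))], ?_⟩
      rw [hg, LinearMap.comp_apply, hN]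
      funext idx
      rcases idx with (i | i) | j
      · rw [nilM2_x]
        simp only [Pi.add_apply, Pi.smul_apply, Matrix.cons_val_zero, Matrix.cons_val_one,
          smul_eq_mul, Pi.single_apply, Sum.inl.injEq, ind]
        split_ifs <;> ring
      · rw [nilM_y]
        simp
      · revert j
        rw [Fin.forall_fin_two]
        constructor
        · rw [nilM2_z0]
          simp
        · rw [nilM2_z1]
          simp
    calc Module.finrank F (LinearMap.range (N ∘ₗ N))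
        ≤ Module.finrank F (LinearMap.range g) := Submodule.finrank_mono hle
      _ ≤ Module.finrank F (Fin 2 → F) := LinearMap.finrank_range_le g
      _ = 2 := by simp
  have hres := Cfsg.Agent.Lib.Helper87.OPar.pkgUB Cfsg.Agent.Lib.Helper80.OPar.pkgAlt F
    (MI (h + h + 1 + 1) → F) h2 B N
    (fun u v => by rw [hB, hB]; exact QuadraticMap.polar_comm _ u v)
    (by
      intro u v
      rw [hB, hB]
      unfold QuadraticMap.polar
      have e : u + N u + (v + N v) = (u + v) + N (u + v) := by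
        rw [map_add]
        abel
      rw [e, hQN, hQN, hQN])
    hN3
    (by
      intro u v hu hv
      obtain ⟨u1, u2, u3⟩ := hker u hu
      obtain ⟨v1, v2, v3⟩ := hker v hv
      rw [hB]
      unfold QuadraticMap.polar
      rw [hQ0 u u1 u2 u3, hQ0 v v1 v2 v3, hQ0 (u + v) (by rw [map_add, u1, v1, add_zero])
        (by rw [Pi.add_apply, u2, v2, add_zero]) (by rw [Pi.add_apply, u3, v3, add_zero])]
      ring)
    hrk W
    (by
      intro w hw
      have h3 : (x : Matrix (MI (h + h + 1 + 1)) (MI (h + h + 1 + 1)) F) *ᵥ w ∈ W := by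
        apply hInv
        exact ⟨w, hw, by rw [Matrix.toLin'_apply]⟩
      have h4 : N w = (x : Matrix (MI (h + h + 1 + 1)) (MI (h + h + 1 + 1)) F) *ᵥ w - w := by
        rw [hxv]
        abel
      rw [h4]
      exact W.sub_mem h3 hw)
    (by
      intro w hw hw0
      obtain ⟨v, hv, hne'⟩ := (hWnd w hw hw0).2
      exact ⟨v, hv, by rw [hB]; exact hne'⟩)
  obtain ⟨a', a₃, hdim, ha₃⟩ := hres
  rw [hWfin] at hdim
  omega

end Cfsg.Agent.Lib.Helper8.OParM
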