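import Mathlib
import Cfsg.Agent.Lib.Helper64.OParM.Defs
import Cfsg.Agent.Lib.Helper57.OPar.Defs
import Cfsg.Agent.Lib.Helper27.OPar.KA
import Cfsg.Agent.Lib.Helper87.OPar.UA
import Cfsg.Agent.Lib.Helper80.OPar.Alt
import Cfsg.Agent.Lib.Helper19.OPar.Iso
import Cfsg.Agent.Lib.Helper19.OPar.Nil
import Cfsg.Agent.Lib.Helper97.OHyp.OddOmega
import Cfsg.Agent.Lib.Helper44.DiagIso

/-!
# OPARM (S5991): the package [UNIM3]

`k` even, `m ≡ 3 (mod 4)`: the unipotent element `diag(xM M, 1)` of `Ω⁻_{2k+2}(q)` (Jordan type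
`J_2^k ⊕ J_1^2`, `M` the shift matrix `sh F k (k/2) (k/2)`) fixes no nondegenerate subspace of
dimension `≡ 3 (mod 4)`.

Also: the generic lift `lift_hyp` of a unipotent isometry `1 + A` of the plus form on the
hyperbolic part to an element of `Ω⁻` (identity on the anisotropic plane).
-/

set_option autoImplicit false
open scoped MatrixGroups
open Matrix

namespace Cfsg.Agent.Lib.Helper8.OParM

open Cfsg.Agent.Lib.Helper23.OHyp Cfsg.Agent.Lib.Helper70.OPar Cfsg.Agent.Lib.Helper64.OParM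
open Cfsg.Agent.Lib.Helper57.OPar

universe u

section

variable {F : Type u} [Field F] {k : ℕ}

/-- the block matrix `diag(B, C)` on the index type of the minus form -/
theorem minus_fromBlocks_mulVec (B : Matrix (Fin k ⊕ Fin k) (Fin k ⊕ Fin k) F)
    (C : Matrix (Fin 2) (Fin 2) F) (v : MI k → F) :
    (Matrix.fromBlocks B 0 0 C : Matrix (MI k) (MI k) F) *ᵥ v =
      Sum.elim (B *ᵥ (v ∘ Sum.inl)) (C *ᵥ (v ∘ Sum.inr)) := by
  rw [Matrix.fromBlocks_mulVec]
  simp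

theorem quadFormMinus_eq (a b : F) (v : MI k → F) :
    Cfsg.quadFormMinus k F a b v = Cfsg.quadFormPlus k F (v ∘ Sum.inl) +
      (v (Sum.inr 0) ^ 2 + a * v (Sum.inr 0) * v (Sum.inr 1) + b * v (Sum.inr 1) ^ 2) := rfl

end

/-- Lift of a unipotent isometry `1 + A` (`A ^ 3 = 0 ≠ A`) of the plus form on the hyperbolic
part to an element of `Ω⁻` of order `p`. -/
theorem lift_hyp (hMQ : PkgMinusQ.{u}) {F : Type u} [Field F] [Fintype F] {p : ℕ}
    [Fact p.Prime] [CharP F p] (hp2 : p ≠ 2) (k : ℕ) (a b : F) (hab : Aniso a b)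
    (A : Matrix (Fin k ⊕ Fin k) (Fin k ⊕ Fin k) F) (hA3 : A * A * A = 0) (hA0 : A ≠ 0)
    (hiso : ∀ v, Cfsg.quadFormPlus k F ((1 + A) *ᵥ v) = Cfsg.quadFormPlus k F v) :
    ∃ x : GL (MI k) F, x ∈ Cfsg.Geo.omegaGL (Cfsg.quadFormMinus k F a b) ∧ x ^ p = 1 ∧ x ≠ 1 ∧
      (x : Matrix (MI k) (MI k) F) = Matrix.fromBlocks (1 + A) 0 0 1 := by
  classical
  have hp := (Fact.out : p.Prime)
  have h2 : (2 : F) ≠ 0 := by
    intro h
    have h3 : ((2 : ℕ) : F) = 0 := by exact_mod_cast h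
    rw [CharP.cast_eq_zero_iff F p] at h3
    exact hp2 ((Nat.prime_dvd_prime_iff_eq hp Nat.prime_two).mp h3)
  obtain ⟨hQnd, -⟩ := hMQ F h2 k a b hab
  obtain ⟨Nm, hNm⟩ : ∃ Nm : Matrix (MI k) (MI k) F, Nm = Matrix.fromBlocks A 0 0 0 := ⟨_, rfl⟩
  have hX : (Matrix.fromBlocks (1 + A) 0 0 1 : Matrix (MI k) (MI k) F) = 1 + Nm := by
    have e1 : (1 : Matrix (MI k) (MI k) F) = Matrix.fromBlocks 1 0 0 1 :=
      Matrix.fromBlocks_one.symm
    rw [hNm, e1, Matrix.fromBlocks_add]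
    simp
  have hN3 : Nm * Nm * Nm = 0 := by
    rw [hNm, Matrix.fromBlocks_multiply, Matrix.fromBlocks_multiply]
    simp [hA3]
  have hN0 : Nm ≠ 0 := by
    intro h
    apply hA0
    have h1 := congrArg Matrix.toBlocks₁₁ h
    rw [hNm, Matrix.toBlocks_fromBlocks₁₁] at h1
    exact h1
  have hinv1 : (1 + Nm) * (1 - Nm + Nm * Nm) = 1 := by
    have : (1 + Nm) * (1 - Nm + Nm * Nm) = 1 + Nm * Nm * Nm := by noncomm_ring
    rw [this, hN3, add_zero]
  have hinv2 : (1 - Nm + Nm * Nm) * (1 + Nm) = 1 := by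
    have : (1 - Nm + Nm * Nm) * (1 + Nm) = 1 + Nm * Nm * Nm := by noncomm_ring
    rw [this, hN3, add_zero]
  obtain ⟨x, hx⟩ : ∃ x : GL (MI k) F, (x : Matrix (MI k) (MI k) F) = 1 + Nm :=
    ⟨⟨1 + Nm, 1 - Nm + Nm * Nm, hinv1, hinv2⟩, rfl⟩
  have hxp : x ^ p = 1 := by
    apply Units.ext
    rw [Units.val_pow_eq_pow_val, hx, Units.val_one]
    have hc : Commute (1 : Matrix (MI k) (MI k) F) Nm := Commute.one_left Nm
    rw [add_pow_char_of_commute p hc, one_pow]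
    have h3 : 3 ≤ p := by
      have := hp.two_le
      omega
    have : Nm ^ p = Nm ^ 3 * Nm ^ (p - 3) := by
      rw [← pow_add]
      congr 1
      omega
    rw [this, pow_succ, pow_two, hN3, zero_mul, add_zero]
  have hx1 : x ≠ 1 := by
    intro h
    apply hN0
    have h1 := congrArg (fun y : GL (MI k) F => (y : Matrix (MI k) (MI k) F)) h
    simp only [hx, Units.val_one] at h1
    have : (1 : Matrix (MI k) (MI k) F) + Nm = 1 + 0 := by rw [h1, add_zero]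
    exact add_left_cancel this
  have hxiso : x ∈ Cfsg.isometryGroup F (Cfsg.quadFormMinus k F a b) := by
    rw [Cfsg.Agent.Lib.Helper44.mem_isometryGroup_iff']
    intro v
    rw [hx, ← hX, minus_fromBlocks_mulVec, quadFormMinus_eq, quadFormMinus_eq]
    simp only [Sum.elim_comp_inl, Sum.elim_inr, Matrix.one_mulVec, Function.comp_apply, hiso]
  have hord : orderOf x = p := orderOf_eq_prime hxp hx1
  have hodd : Odd (orderOf x) := by
    rw [hord]
    exact hp.odd_of_ne_two hp2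
  exact ⟨x, Cfsg.Agent.Lib.Helper97.OHyp.pkgOddOmega F (MI k) _ hQnd h2 x hxiso hodd, hxp, hx1,
    by rw [hx, hX]⟩

/-- **[UNIM3]**, given [MINUSQ]. -/
theorem pkgUniM3_of (hMQ : PkgMinusQ.{u}) : PkgUniM3.{u} := by
  intro F _ _ p _ _ hp2 k m a b hab hk hm hmk hke hm4 W₀ hW₀ hNd₀
  classical
  have hp := (Fact.out : p.Prime)
  have h2 : (2 : F) ≠ 0 := by
    intro h
    have h3 : ((2 : ℕ) : F) = 0 := by exact_mod_cast h
    rw [CharP.cast_eq_zero_iff F p] at h3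
    exact hp2 ((Nat.prime_dvd_prime_iff_eq hp Nat.prime_two).mp h3)
  obtain ⟨hQnd, -⟩ := hMQ F h2 k a b hab
  obtain ⟨h, hh⟩ := hke
  obtain ⟨M, hM⟩ : ∃ M : Matrix (Fin k) (Fin k) F, M = sh F k h h := ⟨_, rfl⟩
  obtain ⟨hMM, hM0, φ0, hφ0⟩ := Cfsg.Agent.Lib.Helper27.OPar.pkgKA F k h (by omega)
    (Or.inl (by omega))
  rw [← hM] at hMM hM0 hφ0
  have hM3 : M * M * M = 0 := by rw [hMM, Matrix.zero_mul]
  have hisoP := Cfsg.Agent.Lib.Helper19.OPar.pkgIso F k M hM3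
  have hnil := (Cfsg.Agent.Lib.Helper19.OPar.pkgNil F k M).2 hMM
  obtain ⟨A, hA⟩ : ∃ A : Matrix (Fin k ⊕ Fin k) (Fin k ⊕ Fin k) F, A = xM M - 1 := ⟨_, rfl⟩
  have hA1 : 1 + A = xM M := by rw [hA]; abel
  have hAA : A * A = 0 := by rw [hA]; exact hnil
  have hA0 : A ≠ 0 := by
    intro h0
    apply hM0
    have h1 : xM M = 1 := by rw [← hA1, h0, add_zero]
    have h3 := congrArg Matrix.toBlocks₁₁ h1
    unfold xM at h3
    rw [Matrix.toBlocks_fromBlocks₁₁, ← Matrix.fromBlocks_one, Matrix.toBlocks_fromBlocks₁₁] at h3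
    have : (1 : Matrix (Fin k) (Fin k) F) + M = 1 + 0 := by rw [h3, add_zero]
    exact add_left_cancel this
  obtain ⟨x, hxΩ, hxp, hx1, hxM⟩ := lift_hyp hMQ hp2 k a b hab A
    (by rw [hAA, Matrix.zero_mul]) hA0 (by rw [hA1]; exact hisoP)
  refine ⟨x, hxΩ, hxp, hx1, ?_⟩
  rintro W ⟨hWfin, hWnd, -⟩ hInv
  obtain ⟨Nm, hNm⟩ : ∃ Nm : Matrix (MI k) (MI k) F, Nm = Matrix.fromBlocks A 0 0 0 := ⟨_, rfl⟩
  have hX : (x : Matrix (MI k) (MI k) F) = 1 + Nm := by
    have e1 : (1 : Matrix (MI k) (MI k) F) = Matrix.fromBlocks 1 0 0 1 :=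
      Matrix.fromBlocks_one.symm
    rw [hxM, hNm, e1, Matrix.fromBlocks_add]
    simp
  have hNN : Nm * Nm = 0 := by
    rw [hNm, Matrix.fromBlocks_multiply]
    simp [hAA]
  have hNv : ∀ v : MI k → F, Nm *ᵥ v = Sum.elim (A *ᵥ (v ∘ Sum.inl)) 0 := by
    intro v
    rw [hNm, minus_fromBlocks_mulVec]
    simp
  have hxQ : ∀ v, Cfsg.quadFormMinus k F a b ((x : Matrix (MI k) (MI k) F) *ᵥ v) =
      Cfsg.quadFormMinus k F a b v := by
    intro v
    rw [hxM, minus_fromBlocks_mulVec, quadFormMinus_eq, quadFormMinus_eq]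
    simp only [Sum.elim_comp_inl, Sum.elim_inr, Matrix.one_mulVec, Function.comp_apply, hA1,
      hisoP]
  obtain ⟨B, hB⟩ : ∃ B : (MI k → F) →ₗ[F] (MI k → F) →ₗ[F] F,
      ∀ u v, B u v = QuadraticMap.polar (Cfsg.quadFormMinus k F a b) u v :=
    ⟨LinearMap.mk₂ F (QuadraticMap.polar (Cfsg.quadFormMinus k F a b))
      hQnd.polar_bilinear.add_left (fun c m n => hQnd.polar_bilinear.smul_left c m n)
      hQnd.polar_bilinear.add_right (fun c m n => hQnd.polar_bilinear.smul_right c m n),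
      fun u v => rfl⟩
  have hres := Cfsg.Agent.Lib.Helper87.OPar.pkgUA Cfsg.Agent.Lib.Helper80.OPar.pkgAlt F
    (MI k → F) h2 B (Matrix.toLin' Nm)
    (fun u v => by rw [hB, hB]; exact QuadraticMap.polar_comm _ u v)
    (by
      intro u v
      have e : ∀ w : MI k → F, w + Matrix.toLin' Nm w = (x : Matrix (MI k) (MI k) F) *ᵥ w := by
        intro w
        rw [hX, Matrix.add_mulVec, Matrix.one_mulVec, Matrix.toLin'_apply]
      rw [e, e, hB, hB]
      unfold QuadraticMap.polar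
      rw [← Matrix.mulVec_add, hxQ, hxQ, hxQ])
    (by
      intro v
      rw [Matrix.toLin'_apply, Matrix.toLin'_apply, Matrix.mulVec_mulVec, hNN,
        Matrix.zero_mulVec])
    2 (LinearMap.funLeft F F (Sum.inr : Fin 2 → MI k))
    (by
      intro v hv hφ
      rw [Matrix.toLin'_apply, hNv] at hv
      have hv1 : A *ᵥ (v ∘ Sum.inl) = 0 := by
        funext i
        have := congrFun hv (Sum.inl i)
        simpa using this
      have hv2 : v ∘ Sum.inr = 0 := hφ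
      obtain ⟨u', hu'⟩ := hφ0 (v ∘ Sum.inl) (by rw [← hA]; exact hv1)
        (by funext i; have := i.isLt; omega)
      refine ⟨Sum.elim u' 0, ?_⟩
      rw [Matrix.toLin'_apply, hNv, Sum.elim_comp_inl, hA, hu', ← hv2, Sum.elim_comp_inl_inr])
    W
    (by
      intro w hw
      have h1 : (x : Matrix (MI k) (MI k) F) *ᵥ w ∈ W := by
        apply hInv
        exact ⟨w, hw, by rw [Matrix.toLin'_apply]⟩
      have h3 : Matrix.toLin' Nm w = (x : Matrix (MI k) (MI k) F) *ᵥ w - w := by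
        rw [hX, Matrix.add_mulVec, Matrix.one_mulVec, Matrix.toLin'_apply]
        abel
      rw [h3]
      exact W.sub_mem h1 hw)
    (by
      intro w hw hw0
      obtain ⟨v, hv, hne⟩ := (hWnd w hw hw0).2
      exact ⟨v, hv, by rw [hB]; exact hne⟩)
  obtain ⟨a', w₁, hdim, hw₁⟩ := hres
  rw [hWfin] at hdim
  omega

end Cfsg.Agent.Lib.Helper8.OParM
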