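-- Team project OPARM (S5991, helper64): package [UEX] of the cut of [UNIME] (helper8).
-- The element `x = 1 + N` of `Ω⁻` of type `J_3 ⊕ J_2^(k-1) ⊕ J_1` (`k` odd) whose fixed
-- anisotropic vector `t` has a prescribed value `Q t = s`.
-- `N (x, y, z) = (S y - (B_P(z, u) + Q_P(u) y_last) e_last, 0, y_last u)` with `S` alternating on
-- the first `k - 1` coordinates, `t = (α, β)` in the plane, `u = (-(a α + 2 b β), 2 α + a β)`.
import Mathlib
import Cfsg.Agent.Lib.Helper64.OParM.UEDefs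
import Cfsg.Agent.Lib.Helper87.OParM.MinusQ
import Cfsg.Agent.Lib.Helper97.OHyp.OddOmega
import Cfsg.Agent.Lib.Helper44.DiagIso
import Cfsg.Agent.Lib.Helper94.Refl
import Cfsg.Agent.Lib.Helper8.OParM.UniM1

set_option autoImplicit false
open scoped MatrixGroups
open Matrix

namespace Cfsg.Agent.Lib.Helper8.OParM

open Cfsg.Agent.Lib.Helper23.OHyp Cfsg.Agent.Lib.Helper70.OPar Cfsg.Agent.Lib.Helper64.OParM
open Cfsg.Agent.Lib.Helper8.OEll (smEven smOdd smOdd_last smOdd_castSucc smOdd_alt smEven_inj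
  smEven_left smEven_right)

universe u

section

variable {F : Type u} [Field F] {k : ℕ}

/-- the nilpotent map of [UEX] -/
def nilE (Sm : (Fin k → F) →ₗ[F] (Fin k → F)) (i₁ : Fin k) (a b u0 u1 : F) :
    (MI k → F) →ₗ[F] (MI k → F) :=
  LinearMap.pi (Sum.elim (Sum.elim
      (fun i => (LinearMap.proj i ∘ₗ Sm ∘ₗ yP)
        - (ind (F := F) i₁ i) • ((2 * u0 + a * u1) • LinearMap.proj (Sum.inr 0)
            + (a * u0 + 2 * b * u1) • LinearMap.proj (Sum.inr 1)
            + (u0 ^ 2 + a * u0 * u1 + b * u1 ^ 2) • (LinearMap.proj i₁ ∘ₗ yP)))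
      (fun _ => 0))
    (fun j => if j = 0 then u0 • (LinearMap.proj i₁ ∘ₗ yP) else u1 • (LinearMap.proj i₁ ∘ₗ yP)))

section nilEfacts

variable (Sm : (Fin k → F) →ₗ[F] (Fin k → F)) (i₁ : Fin k) (a b u0 u1 : F)

theorem nilE_x (v : MI k → F) (i : Fin k) :
    nilE Sm i₁ a b u0 u1 v (Sum.inl (Sum.inl i)) = Sm (yP v) i
      - ind (F := F) i₁ i * ((2 * u0 + a * u1) * v (Sum.inr 0)
        + (a * u0 + 2 * b * u1) * v (Sum.inr 1)
        + (u0 ^ 2 + a * u0 * u1 + b * u1 ^ 2) * v (Sum.inl (Sum.inr i₁))) := by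
  simp [nilE, yP]
  ring

theorem nilE_y (v : MI k → F) (i : Fin k) :
    nilE Sm i₁ a b u0 u1 v (Sum.inl (Sum.inr i)) = 0 := rfl

theorem nilE_z0 (v : MI k → F) :
    nilE Sm i₁ a b u0 u1 v (Sum.inr 0) = u0 * v (Sum.inl (Sum.inr i₁)) := by
  simp [nilE, yP]

theorem nilE_z1 (v : MI k → F) :
    nilE Sm i₁ a b u0 u1 v (Sum.inr 1) = u1 * v (Sum.inl (Sum.inr i₁)) := by
  simp [nilE, yP]

theorem yP_nilE (v : MI k → F) : yP (nilE Sm i₁ a b u0 u1 v) = 0 := by
  funext i
  rfl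

theorem nilE2_x (v : MI k → F) (i : Fin k) :
    nilE Sm i₁ a b u0 u1 (nilE Sm i₁ a b u0 u1 v) (Sum.inl (Sum.inl i)) =
      - (ind (F := F) i₁ i *
        (2 * (u0 ^ 2 + a * u0 * u1 + b * u1 ^ 2) * v (Sum.inl (Sum.inr i₁)))) := by
  rw [nilE_x, yP_nilE, map_zero, nilE_z0, nilE_z1, nilE_y]
  simp only [Pi.zero_apply]
  ring

theorem nilE2_z0 (v : MI k → F) :
    nilE Sm i₁ a b u0 u1 (nilE Sm i₁ a b u0 u1 v) (Sum.inr 0) = 0 := by
  rw [nilE_z0, nilE_y, mul_zero]

theorem nilE2_z1 (v : MI k → F) :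
    nilE Sm i₁ a b u0 u1 (nilE Sm i₁ a b u0 u1 v) (Sum.inr 1) = 0 := by
  rw [nilE_z1, nilE_y, mul_zero]

theorem nilE3 (v : MI k → F) :
    nilE Sm i₁ a b u0 u1 (nilE Sm i₁ a b u0 u1 (nilE Sm i₁ a b u0 u1 v)) = 0 := by
  funext idx
  rcases idx with (i | i) | j
  · rw [nilE2_x, nilE_y]
    simp
  · rfl
  · revert j
    rw [Fin.forall_fin_two]
    exact ⟨nilE2_z0 Sm i₁ a b u0 u1 _, nilE2_z1 Sm i₁ a b u0 u1 _⟩

theorem q_nilE (hS : ∀ y, ∑ i, Sm y i * y i = 0) (v : MI k → F) :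
    Cfsg.quadFormMinus k F a b (v + nilE Sm i₁ a b u0 u1 v) = Cfsg.quadFormMinus k F a b v := by
  unfold Cfsg.quadFormMinus
  simp only [Pi.add_apply, nilE_x, nilE_y, nilE_z0, nilE_z1, add_zero]
  have e1 : ∑ i, ind (F := F) i₁ i * v (Sum.inl (Sum.inr i)) = v (Sum.inl (Sum.inr i₁)) := by
    simp [ind]
  have h1 : ∑ i, (v (Sum.inl (Sum.inl i)) + (Sm (yP v) i
        - ind (F := F) i₁ i * ((2 * u0 + a * u1) * v (Sum.inr 0)
          + (a * u0 + 2 * b * u1) * v (Sum.inr 1)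
          + (u0 ^ 2 + a * u0 * u1 + b * u1 ^ 2) * v (Sum.inl (Sum.inr i₁))))) *
          v (Sum.inl (Sum.inr i)) =
      ∑ i, v (Sum.inl (Sum.inl i)) * v (Sum.inl (Sum.inr i)) + ∑ i, Sm (yP v) i * yP v i
        - ((2 * u0 + a * u1) * v (Sum.inr 0)
          + (a * u0 + 2 * b * u1) * v (Sum.inr 1)
          + (u0 ^ 2 + a * u0 * u1 + b * u1 ^ 2) * v (Sum.inl (Sum.inr i₁))) *
            ∑ i, ind (F := F) i₁ i * v (Sum.inl (Sum.inr i)) := by
    rw [Finset.mul_sum, ← Finset.sum_add_distrib, ← Finset.sum_sub_distrib]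
    apply Finset.sum_congr rfl
    intro i _
    rw [yP_apply]
    ring
  rw [h1, hS, e1]
  ring

end nilEfacts

theorem smEven_smEven {b : ℕ} (y : Fin (b + b) → F) : smEven b (smEven b y) = -y := by
  funext j
  refine Fin.addCases (fun a => ?_) (fun a => ?_) j
  · rw [smEven_left, smEven_right]
    rfl
  · rw [smEven_right, smEven_left]
    rfl

end

/-- **[UEX]** -/
theorem pkgUEX : PkgUEX.{u} := by
  intro F _ _ p _ _ hp2 k a b hab hk s hs
  classical
  have hp := (Fact.out : p.Prime)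
  have h2 : (2 : F) ≠ 0 := by
    intro h
    have h3 : ((2 : ℕ) : F) = 0 := by exact_mod_cast h
    rw [CharP.cast_eq_zero_iff F p] at h3
    exact hp2 ((Nat.prime_dvd_prime_iff_eq hp Nat.prime_two).mp h3)
  obtain ⟨hQnd, -⟩ := Cfsg.Agent.Lib.Helper87.OParM.pkgMinusQ F h2 k a b hab
  have hδ : 4 * b - a ^ 2 ≠ 0 := by
    intro h0
    have h3 := hab (-a) 2 (by linear_combination h0)
    exact h2 h3.2
  obtain ⟨h, rfl⟩ : ∃ h, k = h + h + 1 := by
    obtain ⟨j, hj⟩ := hk
    exact ⟨j, by omega⟩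
  -- the vector `t = (α, β)` of the plane with `Q t = s`
  obtain ⟨α, β, hαβ⟩ : ∃ α β : F, α ^ 2 + a * α * β + b * β ^ 2 = s := by
    have hcard : Fintype.card F % 2 = 1 := by
      apply FiniteField.odd_card_of_char_ne_two
      rw [ringChar.eq F p]
      exact hp2
    obtain ⟨x, y, hxy⟩ := FiniteField.exists_root_sum_quadratic (R := F)
      (f := Polynomial.X ^ 2)
      (g := Polynomial.C (4 * b - a ^ 2) * Polynomial.X ^ 2 - Polynomial.C s)
      (Polynomial.degree_X_pow 2)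
      (by
        rw [Polynomial.degree_sub_C]
        · exact Polynomial.degree_C_mul_X_pow 2 hδ
        · rw [Polynomial.degree_C_mul_X_pow 2 hδ]
          norm_num)
      hcard
    simp only [Polynomial.eval_pow, Polynomial.eval_X, Polynomial.eval_sub, Polynomial.eval_mul,
      Polynomial.eval_C] at hxy
    refine ⟨x - a * y, 2 * y, ?_⟩
    linear_combination hxy
  obtain ⟨u0, hu0⟩ : ∃ u0 : F, u0 = -(a * α + 2 * b * β) := ⟨_, rfl⟩
  obtain ⟨u1, hu1⟩ : ∃ u1 : F, u1 = 2 * α + a * β := ⟨_, rfl⟩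
  have hqu : u0 ^ 2 + a * u0 * u1 + b * u1 ^ 2 = (4 * b - a ^ 2) * s := by
    rw [hu0, hu1]
    linear_combination (4 * b - a ^ 2) * hαβ
  have hqu0 : u0 ^ 2 + a * u0 * u1 + b * u1 ^ 2 ≠ 0 := by
    rw [hqu]
    exact mul_ne_zero hδ hs
  obtain ⟨i₁, hi₁⟩ : ∃ i₁ : Fin (h + h + 1), i₁ = Fin.last (h + h) := ⟨_, rfl⟩
  obtain ⟨N, hN⟩ : ∃ N : (MI (h + h + 1) → F) →ₗ[F] (MI (h + h + 1) → F),
      N = nilE (smOdd h) i₁ a b u0 u1 := ⟨_, rfl⟩
  have hN3 : ∀ v, N (N (N v)) = 0 := by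
    intro v
    rw [hN]
    exact nilE3 _ _ _ _ _ _ v
  have hQN : ∀ v, Cfsg.quadFormMinus (h + h + 1) F a b (v + N v) =
      Cfsg.quadFormMinus (h + h + 1) F a b v := by
    intro v
    rw [hN]
    exact q_nilE _ _ _ _ _ _ smOdd_alt v
  -- the kernel
  have hker : ∀ v : MI (h + h + 1) → F, N v = 0 →
      yP v = 0 ∧ α * v (Sum.inr 1) = β * v (Sum.inr 0) := by
    intro v hv
    rw [hN] at hv
    have hy1 : v (Sum.inl (Sum.inr i₁)) = 0 := by
      by_contra hne
      have h3 := congrFun hv (Sum.inr 0)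
      rw [nilE_z0] at h3
      have h4 := congrFun hv (Sum.inr 1)
      rw [nilE_z1] at h4
      have e0 : u0 = 0 := (mul_eq_zero.mp h3).resolve_right hne
      have e1 : u1 = 0 := (mul_eq_zero.mp h4).resolve_right hne
      apply hqu0
      rw [e0, e1]
      ring
    have hx : ∀ i, smOdd h (yP v) i
        - ind (F := F) i₁ i * ((2 * u0 + a * u1) * v (Sum.inr 0)
          + (a * u0 + 2 * b * u1) * v (Sum.inr 1)) = 0 := by
      intro i
      have h3 := congrFun hv (Sum.inl (Sum.inl i))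
      rw [nilE_x, hy1, mul_zero, add_zero] at h3
      exact h3
    constructor
    · have hyy : (fun j : Fin (h + h) => yP v (Fin.castSucc j)) = 0 := by
        apply smEven_inj
        funext j
        have hj1 : Fin.castSucc j ≠ i₁ := by
          rw [hi₁]
          exact (Fin.castSucc_lt_last _).ne
        have h3 := hx (Fin.castSucc j)
        rw [ind_ne hj1, smOdd_castSucc] at h3
        simpa using h3
      funext j
      refine Fin.lastCases ?_ (fun j' => ?_) j
      · rw [← hi₁]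
        exact hy1
      · exact congrFun hyy j'
    · have h3 := hx i₁
      rw [ind_self, hi₁, smOdd_last, hu0, hu1] at h3
      have h4 : (4 * b - a ^ 2) * (α * v (Sum.inr 1) - β * v (Sum.inr 0)) = 0 := by
        linear_combination -h3
      exact sub_eq_zero.mp ((mul_eq_zero.mp h4).resolve_left hδ)
  -- the vector `t`
  obtain ⟨t, ht⟩ : ∃ t : MI (h + h + 1) → F,
      t = Sum.elim (fun _ => 0) (fun j => if j = 0 then α else β) := ⟨_, rfl⟩
  have htl : ∀ j, t (Sum.inl j) = 0 := by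
    intro j
    rw [ht]
    rfl
  have ht0 : t (Sum.inr 0) = α := by
    rw [ht]
    simp
  have ht1 : t (Sum.inr 1) = β := by
    rw [ht]
    simp
  have hty : yP t = 0 := by
    funext j
    rw [yP_apply, htl]
    rfl
  have hQt : Cfsg.quadFormMinus (h + h + 1) F a b t = s := by
    unfold Cfsg.quadFormMinus
    simp only [htl, ht0, ht1, mul_zero, Finset.sum_const_zero, zero_add]
    exact hαβ
  have hNt : N t = 0 := by
    rw [hN]
    funext idx
    rcases idx with (i | i) | j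
    · rw [nilE_x, hty, map_zero, ht0, ht1, htl, hu0, hu1]
      simp only [Pi.zero_apply]
      ring
    · rfl
    · revert j
      rw [Fin.forall_fin_two]
      constructor
      · rw [nilE_z0, htl]
        simp
      · rw [nilE_z1, htl]
        simp
  have hrep : ∀ v : MI (h + h + 1) → F, N v = 0 →
      ∃ (c : F) (w : MI (h + h + 1) → F), v = c • t + N w := by
    intro v hv
    obtain ⟨hvy, hvz⟩ := hker v hv
    have hs2 : 2 * s ≠ 0 := mul_ne_zero h2 hs
    obtain ⟨c, hc⟩ : ∃ c : F, c = ((2 * α + a * β) * v (Sum.inr 0)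
        + (a * α + 2 * b * β) * v (Sum.inr 1)) / (2 * s) := ⟨_, rfl⟩
    have hc' : c * (2 * s) = (2 * α + a * β) * v (Sum.inr 0)
        + (a * α + 2 * b * β) * v (Sum.inr 1) := by
      rw [hc]
      exact div_mul_cancel₀ _ hs2
    have hc0 : c * α = v (Sum.inr 0) := by
      apply mul_right_cancel₀ hs2
      linear_combination α * hc' + (a * α + 2 * b * β) * hvz + 2 * v (Sum.inr 0) * hαβ
    have hc1 : c * β = v (Sum.inr 1) := by
      apply mul_right_cancel₀ hs2
      linear_combination β * hc' - (2 * α + a * β) * hvz + 2 * v (Sum.inr 1) * hαβ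
    have hqu2 : 2 * (u0 ^ 2 + a * u0 * u1 + b * u1 ^ 2) ≠ 0 := mul_ne_zero h2 hqu0
    obtain ⟨d, hd⟩ : ∃ d : F, d = -(v (Sum.inl (Sum.inl i₁))
        / (2 * (u0 ^ 2 + a * u0 * u1 + b * u1 ^ 2))) := ⟨_, rfl⟩
    have hd' : d * (2 * (u0 ^ 2 + a * u0 * u1 + b * u1 ^ 2)) = -v (Sum.inl (Sum.inl i₁)) := by
      rw [hd, neg_mul, div_mul_cancel₀ _ hqu2]
    obtain ⟨y', hy'⟩ : ∃ y' : Fin (h + h + 1) → F,
        y' = Fin.lastCases (motive := fun _ => F) 0
          (fun j => -smEven h (fun j' => v (Sum.inl (Sum.inl (Fin.castSucc j')))) j) := ⟨_, rfl⟩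
    have hy'l : y' (Fin.last (h + h)) = 0 := by
      rw [hy', Fin.lastCases_last]
    have hy'c : (fun j : Fin (h + h) => y' (Fin.castSucc j)) =
        -smEven h (fun j' => v (Sum.inl (Sum.inl (Fin.castSucc j')))) := by
      funext j
      rw [hy', Fin.lastCases_castSucc]
      rfl
    obtain ⟨w, hw⟩ : ∃ w : MI (h + h + 1) → F,
        w = Sum.elim (Sum.elim (fun _ => 0) y') (fun j => if j = 0 then d * u0 else d * u1) :=
      ⟨_, rfl⟩
    have hwy : yP w = y' := by
      funext j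
      rw [yP_apply, hw]
      rfl
    have hw0 : w (Sum.inr 0) = d * u0 := by
      rw [hw]
      simp
    have hw1 : w (Sum.inr 1) = d * u1 := by
      rw [hw]
      simp
    have hwi : w (Sum.inl (Sum.inr i₁)) = 0 := by
      have h3 := congrFun hwy i₁
      rw [yP_apply] at h3
      rw [h3, hi₁, hy'l]
    refine ⟨c, w, ?_⟩
    rw [hN]
    funext idx
    rcases idx with (i | i) | j
    · rw [Pi.add_apply, Pi.smul_apply, htl, smul_zero, zero_add, nilE_x, hwy, hw0, hw1, hwi]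
      refine Fin.lastCases ?_ (fun j' => ?_) i
      · rw [smOdd_last, ← hi₁, ind_self]
        linear_combination hd'
      · have hj1 : Fin.castSucc j' ≠ i₁ := by
          rw [hi₁]
          exact (Fin.castSucc_lt_last _).ne
        rw [smOdd_castSucc, hy'c, map_neg, smEven_smEven, neg_neg, ind_ne hj1]
        ring
    · rw [Pi.add_apply, Pi.smul_apply, htl, smul_zero, zero_add, nilE_y]
      have h3 := congrFun hvy i
      rw [yP_apply] at h3
      exact h3
    · revert j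
      rw [Fin.forall_fin_two]
      constructor
      · rw [Pi.add_apply, Pi.smul_apply, ht0, nilE_z0, hwi, mul_zero, add_zero, smul_eq_mul, hc0]
      · rw [Pi.add_apply, Pi.smul_apply, ht1, nilE_z1, hwi, mul_zero, add_zero, smul_eq_mul, hc1]
  have hrk : Module.finrank F (LinearMap.range (N ∘ₗ N)) ≤ 1 := by
    obtain ⟨g, hg⟩ : ∃ g : F →ₗ[F] (MI (h + h + 1) → F),
        ∀ c, g c = c • Pi.single (Sum.inl (Sum.inl i₁)) (1 : F) :=
      ⟨LinearMap.toSpanSingleton F _ (Pi.single (Sum.inl (Sum.inl i₁)) (1 : F)), fun c => rfl⟩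
    have hle : LinearMap.range (N ∘ₗ N) ≤ LinearMap.range g := by
      rintro _ ⟨w, rfl⟩
      refine ⟨-(2 * (u0 ^ 2 + a * u0 * u1 + b * u1 ^ 2) * w (Sum.inl (Sum.inr i₁))), ?_⟩
      rw [hg, LinearMap.comp_apply, hN]
      funext idx
      rcases idx with (i | i) | j
      · rw [nilE2_x]
        simp only [Pi.smul_apply, smul_eq_mul, Pi.single_apply, Sum.inl.injEq, ind]
        split_ifs <;> ring
      · rw [nilE_y]
        simp
      · revert j
        rw [Fin.forall_fin_two]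
        constructor
        · rw [nilE2_z0]
          simp
        · rw [nilE2_z1]
          simp
    calc Module.finrank F (LinearMap.range (N ∘ₗ N))
        ≤ Module.finrank F (LinearMap.range g) := Submodule.finrank_mono hle
      _ ≤ Module.finrank F F := LinearMap.finrank_range_le g
      _ = 1 := Module.finrank_self F
  -- the element
  obtain ⟨φ, hφ⟩ : ∃ φ : (MI (h + h + 1) → F) →ₗ[F] (MI (h + h + 1) → F),
      φ = LinearMap.id + N := ⟨_, rfl⟩
  obtain ⟨ψ, hψ⟩ : ∃ ψ : (MI (h + h + 1) → F) →ₗ[F] (MI (h + h + 1) → F),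
      ψ = LinearMap.id - N + N ∘ₗ N := ⟨_, rfl⟩
  have h1 : φ ∘ₗ ψ = LinearMap.id := by
    apply LinearMap.ext
    intro v
    rw [hφ, hψ]
    simp only [LinearMap.comp_apply, LinearMap.add_apply, LinearMap.sub_apply,
      LinearMap.id_apply, map_add, map_sub, hN3]
    abel
  have h1' : ψ ∘ₗ φ = LinearMap.id := by
    apply LinearMap.ext
    intro v
    rw [hφ, hψ]
    simp only [LinearMap.comp_apply, LinearMap.add_apply, LinearMap.sub_apply,
      LinearMap.id_apply, map_add, map_sub, hN3]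
    abel
  obtain ⟨x, hx⟩ : ∃ x : GL (MI (h + h + 1)) F,
      x = Cfsg.Agent.Lib.Helper94.glOfLin φ ψ h1 h1' := ⟨_, rfl⟩
  have hxv : ∀ v, (x : Matrix (MI (h + h + 1)) (MI (h + h + 1)) F) *ᵥ v = v + N v := by
    intro v
    rw [hx, Cfsg.Agent.Lib.Helper94.glOfLin_mulVec, hφ]
    rfl
  have hxiso : x ∈ Cfsg.isometryGroup F (Cfsg.quadFormMinus (h + h + 1) F a b) := by
    rw [Cfsg.Agent.Lib.Helper44.mem_isometryGroup_iff']
    intro u
    rw [hxv]
    exact hQN u
  have hxmat : (x : Matrix (MI (h + h + 1)) (MI (h + h + 1)) F) =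
      1 + LinearMap.toMatrix' N := by
    rw [hx]
    show LinearMap.toMatrix' φ = _
    rw [hφ, map_add, LinearMap.toMatrix'_id]
  have hM3 : LinearMap.toMatrix' N * LinearMap.toMatrix' N * LinearMap.toMatrix' N = 0 := by
    rw [← LinearMap.toMatrix'_comp, ← LinearMap.toMatrix'_comp]
    have h3 : (N ∘ₗ N) ∘ₗ N = 0 := LinearMap.ext (fun v => hN3 v)
    rw [h3, map_zero]
  have hxp : x ^ p = 1 := by
    apply Units.ext
    rw [Units.val_pow_eq_pow_val, Units.val_one]
    have hp3 : 3 ≤ p := by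
      have := hp.two_le
      omega
    have hMp : LinearMap.toMatrix' N ^ p = 0 := by
      have e : p = 3 + (p - 3) := by omega
      rw [e, pow_add, pow_succ, pow_two, hM3, zero_mul]
    rw [hxmat, add_pow_char_of_commute p (Commute.one_left _), one_pow, hMp, add_zero]
  have hx1ne : x ≠ 1 := by
    intro hc
    have h3 := hxv (Pi.single (Sum.inl (Sum.inr i₁)) 1)
    rw [hc, Units.val_one, Matrix.one_mulVec] at h3
    have h4 : N (Pi.single (Sum.inl (Sum.inr i₁)) 1) = 0 := by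
      have h5 : (Pi.single (Sum.inl (Sum.inr i₁)) (1 : F) : MI (h + h + 1) → F) +
          N (Pi.single (Sum.inl (Sum.inr i₁)) 1) = Pi.single (Sum.inl (Sum.inr i₁)) 1 + 0 := by
        rw [add_zero]
        exact h3.symm
      exact add_left_cancel h5
    have h6 := congrFun ((hker _ h4).1) i₁
    rw [yP_apply, Pi.single_eq_same] at h6
    exact one_ne_zero h6
  have hord : orderOf x = p := orderOf_eq_prime hxp hx1ne
  have hodd : Odd (orderOf x) := by
    rw [hord]
    exact hp.odd_of_ne_two hp2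
  have hxΩ := Cfsg.Agent.Lib.Helper97.OHyp.pkgOddOmega F (MI (h + h + 1)) _ hQnd h2 x hxiso hodd
  have hx1 : (x : Matrix (MI (h + h + 1)) (MI (h + h + 1)) F) - 1 = LinearMap.toMatrix' N := by
    rw [hxmat, add_sub_cancel_left]
  have hmv : ∀ v, ((x : Matrix (MI (h + h + 1)) (MI (h + h + 1)) F) - 1) *ᵥ v = N v := by
    intro v
    rw [hx1, LinearMap.toMatrix'_mulVec]
  refine ⟨x, t, hxΩ, hxp, hx1ne, hQt, ?_, ?_, ?_, ?_⟩
  · rw [hx1]
    exact hM3
  · rw [hmv]
    exact hNt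
  · intro v hv
    rw [hmv] at hv
    obtain ⟨c, w, hw⟩ := hrep v hv
    exact ⟨c, w, by rw [hmv]; exact hw⟩
  · rw [hx1, ← LinearMap.toMatrix'_comp, Matrix.toLin'_toMatrix']
    exact hrk

end Cfsg.Agent.Lib.Helper8.OParM
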